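import Mathlib
import Cfsg.Agent.Lib.Helper31.Siegel.Defs

/-!
# SIEGEL (S5072), package [ALG]: the algebra of Siegel transvections of one singular line
-/

set_option autoImplicit false
open scoped Matrix

namespace Cfsg.Agent.Lib.Helper76.Siegel

open Cfsg.Agent.Lib.Helper31.Siegel

universe u

section

variable {n : ℕ} {F : Type u} [Field F]

theorem sing_Bpr {p r : Vec n F} (h : IsSingLine p r) : B p r = 0 := by
  obtain ⟨_, hp, hr, hpr⟩ := h
  unfold B
  rw [hpr, hp, hr]; ring

theorem sing_Bpp {p r : Vec n F} (h : IsSingLine p r) : B p p = 0 := by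
  rw [B_self, h.2.1]; ring

theorem sing_Brr {p r : Vec n F} (h : IsSingLine p r) : B r r = 0 := by
  rw [B_self, h.2.2.1]; ring

theorem sing_Brp {p r : Vec n F} (h : IsSingLine p r) : B r p = 0 := by
  rw [B_comm]; exact sing_Bpr h

/-- `B(v + a p - b r, r) = B(v, r)` on a singular line -/
theorem B_shift_r {p r : Vec n F} (h : IsSingLine p r) (v : Vec n F) (a b : F) :
    B (v + a • p - b • r) r = B v r := by
  rw [B_sub_left, B_add_left, B_smul_left, B_smul_left, sing_Bpr h, sing_Brr h]; ring

/-- `B(v + a p - b r, p) = B(v, p)` on a singular line -/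
theorem B_shift_p {p r : Vec n F} (h : IsSingLine p r) (v : Vec n F) (a b : F) :
    B (v + a • p - b • r) p = B v p := by
  rw [B_sub_left, B_add_left, B_smul_left, B_smul_left, sing_Bpp h, sing_Brp h]; ring

theorem sing_swap {p r : Vec n F} (h : IsSingLine p r) : IsSingLine r p := by
  obtain ⟨hli, hp, hr, hpr⟩ := h
  refine ⟨?_, hr, hp, by rw [add_comm]; exact hpr⟩
  rw [LinearIndependent.pair_iff] at hli ⊢
  intro s t hst
  have := hli t s (by rw [add_comm]; exact hst)
  exact ⟨this.2, this.1⟩

theorem siegel_one {p r : Vec n F} : IsSiegel p r 0 (1 : ↥(Iso n F)) := by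
  intro v
  rw [one_act]
  simp

theorem siegel_mul {p r : Vec n F} (h : IsSingLine p r) (c d : F) (σ τ : ↥(Iso n F))
    (hσ : IsSiegel p r c σ) (hτ : IsSiegel p r d τ) : IsSiegel p r (c + d) (σ * τ) := by
  intro v
  rw [mul_act, hτ v, hσ, B_shift_r h, B_shift_p h]
  module

theorem siegel_inv {p r : Vec n F} (h : IsSingLine p r) (c : F) (σ : ↥(Iso n F))
    (hσ : IsSiegel p r c σ) : IsSiegel p r (-c) σ⁻¹ := by
  intro v
  have h1 := hσ (mat σ⁻¹ *ᵥ v)
  rw [act_inv] at h1
  have h2 : B v r = B (mat σ⁻¹ *ᵥ v) r := by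
    conv_lhs => rw [h1]
    exact B_shift_r h _ _ _
  have h3 : B v p = B (mat σ⁻¹ *ᵥ v) p := by
    conv_lhs => rw [h1]
    exact B_shift_p h _ _ _
  rw [← h2, ← h3] at h1
  have h4 : mat σ⁻¹ *ᵥ v = v - (c * B v r) • p + (c * B v p) • r := by
    calc mat σ⁻¹ *ᵥ v
        = (mat σ⁻¹ *ᵥ v + (c * B v r) • p - (c * B v p) • r) - (c * B v r) • p
            + (c * B v p) • r := by module
      _ = v - (c * B v r) • p + (c * B v p) • r := by rw [← h1]
  rw [h4]
  module

theorem siegel_eq_one_iff {p r : Vec n F} (h : IsSingLine p r) (c : F) (σ : ↥(Iso n F))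
    (hσ : IsSiegel p r c σ) : σ = 1 ↔ c = 0 := by
  constructor
  · intro h1
    by_contra hc
    have hli := h.1
    have hp0 : p = 0 := by
      apply eq_zero_of_B
      intro v
      have h2 := hσ v
      rw [h1, one_act] at h2
      have h3 : (c * B v r) • p + (-(c * B v p)) • r = 0 := by
        have : v + (c * B v r) • p - (c * B v p) • r - v = 0 := by
          rw [← h2]; simp
        rw [← this]
        module
      have h4 := (LinearIndependent.pair_iff.1 hli) _ _ h3
      have h5 : c * B v p = 0 := by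
        have := h4.2
        simpa using this
      rcases mul_eq_zero.1 h5 with h6 | h6
      · exact absurd h6 hc
      · rw [B_comm]; exact h6
    have := hli.ne_zero 0
    simp at this
    exact this hp0
  · intro hc
    subst hc
    apply ext_act
    intro v
    rw [hσ v, one_act]
    simp

theorem siegel_swap {p r : Vec n F} (c : F) (σ : ↥(Iso n F))
    (hσ : IsSiegel p r c σ) : IsSiegel r p (-c) σ := by
  intro v
  rw [hσ v]
  module

end

/-- [ALG] -/
theorem pkgAlg : Cfsg.Agent.Lib.Helper31.Siegel.PkgAlg.{u} := by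
  intro n F _ p r h
  exact ⟨siegel_one, siegel_mul h, siegel_inv h, siegel_eq_one_iff h,
    fun c σ hσ => siegel_swap c σ hσ, sing_swap h⟩

end Cfsg.Agent.Lib.Helper76.Siegel
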