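import Mathlib
import Cfsg.Agent.Lib.Helper31.Siegel.Defs
import Cfsg.Agent.Lib.Helper76.Siegel.Alg

/-!
# SIEGEL (S5072), package [EXIST]: every Siegel transvection exists as an isometry
-/

set_option autoImplicit false
open scoped Matrix

namespace Cfsg.Agent.Lib.Helper76.Siegel

open Cfsg.Agent.Lib.Helper31.Siegel

universe u

section

variable {n : ℕ} {F : Type u} [Field F]

/-- the Siegel map `v ↦ v + c B(v,r) p - c B(v,p) r` as a linear map -/
def siegelLin (p r : Vec n F) (c : F) : Vec n F →ₗ[F] Vec n F where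
  toFun v := v + (c * B v r) • p - (c * B v p) • r
  map_add' v w := by
    simp only [B_add_left]
    module
  map_smul' a v := by
    simp only [B_smul_left, RingHom.id_apply]
    module

theorem siegelLin_apply (p r : Vec n F) (c : F) (v : Vec n F) :
    siegelLin p r c v = v + (c * B v r) • p - (c * B v p) • r := rfl

theorem siegelLin_comp {p r : Vec n F} (h : IsSingLine p r) (c d : F) :
    (siegelLin p r c).comp (siegelLin p r d) = siegelLin p r (c + d) := by
  apply LinearMap.ext
  intro v
  rw [LinearMap.comp_apply, siegelLin_apply p r d v, siegelLin_apply, B_shift_r h, B_shift_p h,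
    siegelLin_apply]
  module

theorem siegelLin_zero (p r : Vec n F) : siegelLin p r 0 = LinearMap.id := by
  apply LinearMap.ext
  intro v
  rw [siegelLin_apply]
  simp

theorem siegelLin_Q {p r : Vec n F} (h : IsSingLine p r) (c : F) (v : Vec n F) :
    QF n F (siegelLin p r c v) = QF n F v := by
  rw [siegelLin_apply, Q_sub, Q_add, Q_smul, Q_smul, h.2.1, h.2.2.1, B_smul_right, B_smul_right,
    B_add_left, B_smul_left, sing_Bpr h]
  ring

/-- the Siegel transvection as an element of `GL` -/
noncomputable def siegelGL {p r : Vec n F} (h : IsSingLine p r) (c : F) :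
    Matrix.GeneralLinearGroup (Fin n ⊕ Fin n) F where
  val := LinearMap.toMatrix' (siegelLin p r c)
  inv := LinearMap.toMatrix' (siegelLin p r (-c))
  val_inv := by
    rw [← LinearMap.toMatrix'_comp, siegelLin_comp h, add_neg_cancel, siegelLin_zero,
      LinearMap.toMatrix'_id]
  inv_val := by
    rw [← LinearMap.toMatrix'_comp, siegelLin_comp h, neg_add_cancel, siegelLin_zero,
      LinearMap.toMatrix'_id]

theorem siegelGL_mulVec {p r : Vec n F} (h : IsSingLine p r) (c : F) (v : Vec n F) :
    ((siegelGL h c : Matrix.GeneralLinearGroup (Fin n ⊕ Fin n) F) :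
      Matrix (Fin n ⊕ Fin n) (Fin n ⊕ Fin n) F) *ᵥ v = siegelLin p r c v := by
  show LinearMap.toMatrix' (siegelLin p r c) *ᵥ v = _
  rw [← Matrix.toLin'_apply, Matrix.toLin'_toMatrix']

theorem siegelGL_mem {p r : Vec n F} (h : IsSingLine p r) (c : F) :
    siegelGL h c ∈ Iso n F := by
  intro u v
  show QF n F (((siegelGL h c : Matrix.GeneralLinearGroup (Fin n ⊕ Fin n) F) :
      Matrix (Fin n ⊕ Fin n) (Fin n ⊕ Fin n) F) *ᵥ u) = QF n F u
  rw [siegelGL_mulVec, siegelLin_Q h]

end

/-- [EXIST] -/
theorem pkgExist : Cfsg.Agent.Lib.Helper31.Siegel.PkgExist.{u} := by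
  intro n F _ p r h c
  refine ⟨⟨siegelGL h c, siegelGL_mem h c⟩, ?_⟩
  intro v
  show ((siegelGL h c : Matrix.GeneralLinearGroup (Fin n ⊕ Fin n) F) :
      Matrix (Fin n ⊕ Fin n) (Fin n ⊕ Fin n) F) *ᵥ v = _
  rw [siegelGL_mulVec, siegelLin_apply]

end Cfsg.Agent.Lib.Helper76.Siegel
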